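import Mathlib
import Cfsg.Agent.H7.Rv4

/-! Uniqueness of the invariant strongly regular graph of the Rudvalis configuration. -/

set_option autoImplicit false
namespace Cfsg.Agent.H7.Rv
open MulAction

theorem uq_sum {B X : Type*} [Group B] [MulAction B X] [Finite X] (p : ℕ → X) (n : ℕ) (U : Set X) [DecidablePred (· ∈ U)]
    (hU : ∀ (g : B) y, y ∈ U → g • y ∈ U) (hc : ∀ y ∈ U, ∃ i < n, y ∈ orbit B (p i))
    (hd : ∀ i < n, ∀ j < n, p i ∈ orbit B (p j) → i = j) :
    U.ncard = ∑ i ∈ Finset.range n, if p i ∈ U then (orbit B (p i)).ncard else 0 := by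
  classical
  induction n generalizing U with
  | zero => exact (Set.ncard_eq_zero).2 (Set.eq_empty_of_forall_notMem (s := U) fun y h => by simpa using hc y h)
  | succ n ih =>
    rw [Finset.sum_range_succ, ← Set.ncard_inter_add_ncard_sdiff_eq_ncard U (orbit B (p n)), add_comm,
      ih (U \ orbit B (p n)) (fun g y h => ⟨hU g y h.1, fun k => h.2 (by
        have := mem_orbit_of_mem_orbit g⁻¹ k
        rwa [inv_smul_smul] at this)⟩) (fun y h => by
        obtain ⟨i, hi, k⟩ := hc y h.1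
        exact ⟨i, lt_of_le_of_ne (by omega) fun e => h.2 (e ▸ k), k⟩) fun i hi j hj => hd i (by omega) j (by omega)]
    congr 1
    · refine Finset.sum_congr rfl fun i hi => if_congr ⟨fun h => h.1, fun h => ⟨h, fun k => ?_⟩⟩ rfl rfl
      have := hd i (by simp at hi; omega) n (by omega) k
      simp at hi; omega
    · split_ifs with h
      · rw [Set.inter_eq_right.2 (by rintro _ ⟨g, rfl⟩; exact hU g _ h)]
      · rw [Set.eq_empty_of_forall_notMem (s := U ∩ _) ?_, Set.ncard_empty]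
        rintro _ ⟨k, g, rfl⟩
        have := hU g⁻¹ _ k
        rw [inv_smul_smul] at this
        exact h this

theorem uq_row {H X : Type*} [Group H] [Fintype X] [MulAction H X] (hX : Fintype.card X = 4060)
    (x0 x1 x2 : X) (h0 : ∀ h : H, h • x0 = x0) (h3 : ∀ x, x = x0 ∨ x ∈ orbit H x1 ∨ x ∈ orbit H x2)
    (cD : (orbit H x1).ncard = 1755) (cE : (orbit H x2).ncard = 2304) (p k : ℕ → X)
    (hp : ∀ y ∈ orbit H x1, y = x1 ∨ ∃ i < 4, y ∈ orbit (stabilizer H x1) (p i))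
    (hp' : ∀ y ∈ orbit H x2, y ∈ orbit (stabilizer H x1) (p 4) ∨ y ∈ orbit (stabilizer H x1) (p 5))
    (cp : ∀ i < 6, (orbit (stabilizer H x1) (p i)).ncard = [10, 80, 640, 1024, 1024, 1280].getD i 0)
    (hk : ∀ y ∈ orbit H x2, y = x2 ∨ ∃ i < 5, y ∈ orbit (stabilizer H x2) (k i))
    (ck : ∀ i < 5, (orbit (stabilizer H x2) (k i)).ncard = [78, 300, 300, 650, 975].getD i 0)
    (kne : k 1 ∉ orbit (stabilizer H x2) (k 2))
    {R : X → X → Prop} {l m : ℕ} (hs : Srg R l m) (hR : ∀ (g : H) x y, R (g • x) (g • y) ↔ R x y)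
    (ha : ∀ y, R x0 y ↔ y ∈ orbit H x1) :
    (∀ i < 4, (R x0 (p i) ∧ R x1 (p i) ↔ i < 3)) ∧ ((R x1 (p 4) ∧ p 4 ∈ orbit H x2) ∧ ¬ (R x1 (p 5) ∧ p 5 ∈ orbit H x2)) ∧
      ∀ i < 5, (R x2 (k i) ∧ k i ∈ orbit H x2 ↔ i = 4) := by
  classical
  have n0 : ∀ x : X, (orbit H x).ncard ≠ 1 → x0 ∉ orbit H x := fun x h k => h (by
    rw [← orbit_eq_iff.2 k, Set.ncard_eq_one]
    exact ⟨x0, Set.eq_singleton_iff_unique_mem.2 ⟨mem_orbit_self _, by rintro _ ⟨g, rfl⟩; exact h0 g⟩⟩)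
  have dj : ∀ y ∈ orbit H x1, y ∉ orbit H x2 := fun y a b => by
    rw [← orbit_eq_iff.2 a, orbit_eq_iff.2 b] at cD; omega
  have r1 : R x0 x1 := (ha _).2 (mem_orbit_self _)
  have r2 : ¬ R x0 x2 := fun h => dj _ ((ha _).1 h) (mem_orbit_self _)
  have inv : ∀ (x : X) (g : stabilizer H x) y, R x y → R x (g • y) := fun x g y h => by
    have := (hR g.1 x y).2 h
    rwa [g.2] at this
  have i0 : ∀ (g : H) y, R x0 y → R x0 (g • y) := fun g y h => by
    have := (hR g x0 y).2 h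
    rwa [h0] at this
  have s1 := uq_sum (B := stabilizer H x1) p 4 {z | R x0 z ∧ R x1 z} (fun g y h => ⟨i0 g.1 y h.1, inv _ g y h.2⟩)
    (fun y h => (hp y ((ha y).1 h.1)).resolve_left fun e => hs.ir x1 (by have := h.2; rwa [e] at this)) fun i hi j hj h => by
      have := cp i (by omega)
      rw [orbit_eq_iff.2 h, cp j (by omega)] at this
      interval_cases i <;> interval_cases j <;> simp at this ⊢
  have s2 := uq_sum (B := stabilizer H x1) (fun i => p (i + 4)) 2 {z | R x1 z ∧ z ∈ orbit H x2}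
    (fun g y h => ⟨inv _ g y h.1, mem_orbit_of_mem_orbit g.1 h.2⟩)
    (fun y h => (hp' y h.2).elim (fun a => ⟨0, by omega, a⟩) fun a => ⟨1, by omega, a⟩) fun i hi j hj h => by
      have := cp (i + 4) (by omega)
      rw [orbit_eq_iff.2 h, cp (j + 4) (by omega)] at this
      interval_cases i <;> interval_cases j <;> simp at this ⊢
  have s3 := uq_sum (B := stabilizer H x2) k 5 {z | R x2 z ∧ z ∈ orbit H x2}
    (fun g y h => ⟨inv _ g y h.1, mem_orbit_of_mem_orbit g.1 h.2⟩)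
    (fun y h => (hk y h.2).resolve_left fun e => hs.ir x2 (by have := h.1; rwa [e] at this)) fun i hi j hj h => by
      have := ck i hi
      rw [orbit_eq_iff.2 h, ck j hj] at this
      interval_cases i <;> interval_cases j <;> first | rfl | exact absurd h kne | exact absurd (mem_orbit_symm.1 h) kne | simp at this
  have e1 : {y | R x1 y} = insert x0 ({z | R x0 z ∧ R x1 z} ∪ {z | R x1 z ∧ z ∈ orbit H x2}) := by
    ext y
    refine ⟨fun h => (h3 y).imp_right (.imp (fun a => ⟨(ha y).2 a, h⟩) fun a => ⟨h, a⟩), ?_⟩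
    rintro (rfl | h | h)
    exacts [hs.sy _ _ r1, h.2, h.1]
  have e2 : {y | R x2 y} = {z | R x0 z ∧ R x2 z} ∪ {z | R x2 z ∧ z ∈ orbit H x2} := by
    ext y
    refine ⟨fun h => ((h3 y).resolve_left fun e => r2 (hs.sy _ _ (e ▸ h))).imp (fun a => ⟨(ha y).2 a, h⟩) fun a => ⟨h, a⟩, ?_⟩
    rintro (h | h)
    exacts [h.2, h.1]
  have v1 := hs.val x1
  have v2 := hs.val x2
  rw [e1, Set.ncard_insert_of_notMem (by rintro (h | h); exacts [hs.ir _ h.1, n0 x2 (by omega) h.2]),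
    Set.ncard_union_eq (Set.disjoint_left.2 fun y a b => dj y ((ha y).1 a.1) b.2), s2, hs.la _ _ r1] at v1
  rw [e2, Set.ncard_union_eq (Set.disjoint_left.2 fun y a b => dj y ((ha y).1 a.1) b.2), s3,
    hs.mu x0 x2 (fun e => n0 x2 (by omega) (by rw [e]; exact mem_orbit_self _)) r2] at v2
  rw [hs.la _ _ r1] at s1
  have q1 := hs.param hX
  have q2 := hs.lt hX
  simp only [Finset.sum_range_succ, Finset.sum_range_zero, Set.mem_ofPred_eq, zero_add, Nat.reduceAdd, cp 0 (by omega), cp 1 (by omega),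
    cp 2 (by omega), cp 3 (by omega), cp 4 (by omega), cp 5 (by omega), ck 0 (by omega), ck 1 (by omega),
    ck 2 (by omega), ck 3 (by omega), ck 4 (by omega), List.getD_cons_zero, List.getD_cons_succ] at s1 v1 v2
  have l7 : l = 730 := by split_ifs at s1 v1 <;> omega
  subst l7
  have m7 : m = 780 := by omega
  subst m7
  refine ⟨fun i hi => ?_, ?_, fun i hi => ?_⟩
  · split_ifs at s1 <;> first | omega | (interval_cases i <;> first | exact iff_of_true ‹_› (by omega) | exact iff_of_false ‹_› (by omega))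
  · split_ifs at v1 <;> first | omega | exact ⟨‹_›, ‹_›⟩
  · split_ifs at v2 <;> first | omega | (interval_cases i <;> first | exact iff_of_true ‹_› (by omega) | exact iff_of_false ‹_› (by omega))

theorem uniq {H X : Type*} [Group H] [Fintype X] [MulAction H X] (hX : Fintype.card X = 4060)
    (x0 x1 x2 : X) (h0 : ∀ h : H, h • x0 = x0) (h3 : ∀ x, x = x0 ∨ x ∈ orbit H x1 ∨ x ∈ orbit H x2)
    (cD : (orbit H x1).ncard = 1755) (cE : (orbit H x2).ncard = 2304) (p k : ℕ → X)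
    (hp : ∀ y ∈ orbit H x1, y = x1 ∨ ∃ i < 4, y ∈ orbit (stabilizer H x1) (p i))
    (hp' : ∀ y ∈ orbit H x2, y ∈ orbit (stabilizer H x1) (p 4) ∨ y ∈ orbit (stabilizer H x1) (p 5))
    (cp : ∀ i < 6, (orbit (stabilizer H x1) (p i)).ncard = [10, 80, 640, 1024, 1024, 1280].getD i 0)
    (hk : ∀ y ∈ orbit H x2, y = x2 ∨ ∃ i < 5, y ∈ orbit (stabilizer H x2) (k i))
    (ck : ∀ i < 5, (orbit (stabilizer H x2) (k i)).ncard = [78, 300, 300, 650, 975].getD i 0)
    (pm : ∀ i < 4, p i ∈ orbit H x1) (pm' : p 4 ∈ orbit H x2 ∧ p 5 ∈ orbit H x2)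
    (km : ∀ i < 5, k i ∈ orbit H x2) (kne : k 1 ∉ orbit (stabilizer H x2) (k 2))
    {R R' : X → X → Prop} {l m l' m' : ℕ} (hs : Srg R l m) (hs' : Srg R' l' m')
    (hR : ∀ (g : H) x y, R (g • x) (g • y) ↔ R x y) (hR' : ∀ (g : H) x y, R' (g • x) (g • y) ↔ R' x y)
    (ha : ∀ y, R x0 y ↔ y ∈ orbit H x1) (ha' : ∀ y, R' x0 y ↔ y ∈ orbit H x1) (x y : X) :
    R x y ↔ R' x y := by
  obtain ⟨a1, a2, a3⟩ := uq_row hX x0 x1 x2 h0 h3 cD cE p k hp hp' cp hk ck kne hs hR ha
  obtain ⟨b1, b2, b3⟩ := uq_row hX x0 x1 x2 h0 h3 cD cE p k hp hp' cp hk ck kne hs' hR' ha'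
  have sy : ∀ x y, (R x y ↔ R' x y) → (R y x ↔ R' y x) := fun x y h =>
    ⟨fun a => hs'.sy _ _ (h.1 (hs.sy _ _ a)), fun a => hs.sy _ _ (h.2 (hs'.sy _ _ a))⟩
  have tr : ∀ (g : H) x y, (R x y ↔ R' x y) → (R (g • x) (g • y) ↔ R' (g • x) (g • y)) := fun g x y h => by
    rw [hR, hR', h]
  have ob : ∀ x z, (R x z ↔ R' x z) → ∀ y ∈ orbit (stabilizer H x) z, (R x y ↔ R' x y) := by
    rintro x z h _ ⟨g, rfl⟩
    have := tr g.1 x z h
    rwa [g.2] at this
  have al : ∀ z, (∀ y, R z y ↔ R' z y) → ∀ x ∈ orbit H z, ∀ y, R x y ↔ R' x y := by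
    rintro z h _ ⟨g, rfl⟩ y
    have := tr g z (g⁻¹ • y) (h _)
    rwa [smul_inv_smul] at this
  have ir : ∀ x, R x x ↔ R' x x := fun x => iff_of_false (hs.ir x) (hs'.ir x)
  have w0 : ∀ y, R x0 y ↔ R' x0 y := fun y => (ha y).trans (ha' y).symm
  have w1 := al x1 fun y => by
    rcases h3 y with rfl | h | h
    · exact sy _ _ (w0 _)
    · rcases hp y h with rfl | ⟨i, hi, h⟩
      · exact ir _
      · refine ob _ _ ?_ y h
        have := (a1 i hi).trans (b1 i hi).symm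
        simpa only [ha, ha', pm i hi, true_and] using this
    · rcases hp' y h with h | h
      · exact ob _ _ (iff_of_true a2.1.1 b2.1.1) y h
      · exact ob _ _ (iff_of_false (fun e => a2.2 ⟨e, pm'.2⟩) fun e => b2.2 ⟨e, pm'.2⟩) y h
  have w2 := al x2 fun y => by
    rcases h3 y with rfl | h | h
    · exact sy _ _ (w0 _)
    · exact sy _ _ (w1 y h _)
    · rcases hk y h with rfl | ⟨i, hi, h⟩
      · exact ir _
      · refine ob _ _ ?_ y h
        have := (a3 i hi).trans (b3 i hi).symm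
        simpa only [km i hi, and_true] using this
  rcases h3 x with rfl | h | h
  exacts [w0 y, w1 x h y, w2 x h y]

end Cfsg.Agent.H7.Rv
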