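import Cfsg.Agent.H15.SzB.C0
import Cfsg.Agent.H15.SzB.C1
import Cfsg.Agent.H15.SzB.C2
set_option autoImplicit false
set_option maxRecDepth 100000

namespace Cfsg.Agent.H15.SzB
open Cfsg.Agent.H15 Cfsg.Agent.H14

theorem good : RowsGood P (List.range (P.eps + 1)) 0 P.N :=
  ((RowsGood.append f0 (RowsGood.append f1 f2)) : RowsGood P ls 0 27592)
theorem idx {G : Type*} [Group G] {E : ℕ → G} {inv : ℕ → ℕ} (hi : ∀ l, E (inv l) = (E l)⁻¹)
    {B : List (List ℕ × ℕ)} (hB : ∀ p ∈ B, lprod E p.1 ^ p.2 = 1) (σ : List (List ℕ))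
    {hs ks : List (List ℕ)} (hc : certOk P wt bases inv B σ hs ks = true) :
    (gp E hs).relIndex (gp E ks) ≠ 0 ∧ (gp E hs).relIndex (gp E ks) ≤ 22880 :=
  tc_gp hi hB rfl (fun _ h => invT_of_le h) good σ hc

end Cfsg.Agent.H15.SzB
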